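import Cfsg.Prelude
import Mathlib.GroupTheory.GroupAction.MultipleTransitivity
import Mathlib.GroupTheory.Index
import Mathlib.Tactic

/-! Elementary facts on Zassenhaus groups. -/

set_option autoImplicit false

namespace Cfsg.Agent.Lib.Zassenhaus

open Cfsg MulAction

variable {G Ω : Type*} [Group G] [MulAction G Ω]

theorem eq_one_of_fix_three (hZ : IsZassenhausGroup G Ω) {g : G} {a b c : Ω} (hab : a ≠ b)
    (hbc : b ≠ c) (hac : a ≠ c) (ha : g • a = a) (hb : g • b = b) (hc : g • c = c) : g = 1 :=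
  hZ.2.2.1 g a b c hab hbc hac ha hb hc

theorem exists_map_pair (hZ : IsZassenhausGroup G Ω) {a b c d : Ω} (hab : a ≠ b) (hcd : c ≠ d) :
    ∃ g : G, g • a = c ∧ g • b = d :=
  is_two_pretransitive_iff.mp hZ.2.1 hab hcd

theorem exists_two_point (hZ : IsZassenhausGroup G Ω) {a b : Ω} (hab : a ≠ b) :
    ∃ x ∈ stabilizer G a ⊓ stabilizer G b, x ≠ 1 := by
  obtain ⟨g, hg1, c, d, hcd, hc, hd⟩ := hZ.2.2.2.1
  obtain ⟨h, hha, hhb⟩ := exists_map_pair hZ hcd hab
  refine ⟨h * g * h⁻¹, ⟨?_, ?_⟩, fun e => hg1 ?_⟩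
  · show (h * g * h⁻¹) • a = a
    rw [← hha, smul_smul, inv_mul_cancel_right, mul_smul, hc]
  · show (h * g * h⁻¹) • b = b
    rw [← hhb, smul_smul, inv_mul_cancel_right, mul_smul, hd]
  · rwa [mul_inv_eq_one, mul_eq_left] at e

theorem two_point_fixed (hZ : IsZassenhausGroup G Ω) {a b c : Ω} (hab : a ≠ b) {x : G}
    (hx : x ∈ stabilizer G a ⊓ stabilizer G b) (hx1 : x ≠ 1) (hc : x • c = c) : c = a ∨ c = b := by
  by_contra h
  rw [not_or] at h
  exact hx1 (eq_one_of_fix_three hZ hab (Ne.symm h.2) (Ne.symm h.1) hx.1 hx.2 hc)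

/-- An element of the kernel fixes only the base point. -/
theorem kernel_stabilizer (hZ : IsZassenhausGroup G Ω) [Finite G] [Fintype Ω] (a : Ω)
    (H : Subgroup G) (hHa : H ≤ stabilizer G a) (hHcard : Nat.card H + 1 = Fintype.card Ω)
    (hHfix : ∀ u ∈ H, u ≠ 1 → ∀ c : Ω, u • c = c → c = a) {b : Ω} (hb : b ≠ a) {s : G}
    (hs : s • a = a) : ∃ h ∈ H, ∃ d ∈ stabilizer G a ⊓ stabilizer G b, s = h * d := by
  classical
  have := Fintype.ofFinite H
  let f : H → {c : Ω // c ≠ a} := fun h => ⟨(h : G) • b, fun e => hb (by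
    have : (h : G) • b = (h : G) • a := e.trans (hHa h.2).symm
    exact MulAction.injective _ this)⟩
  have hinj : Function.Injective f := fun h k e => by
    have e' : (h : G) • b = (k : G) • b := congrArg Subtype.val e
    by_contra hne
    refine hb (hHfix _ (H.mul_mem (H.inv_mem k.2) h.2) (fun h1 => hne ?_) b ?_)
    · exact Subtype.ext (inv_mul_eq_one.mp h1).symm
    · rw [mul_smul, e', inv_smul_smul]
  have hbij : Function.Bijective f := (Fintype.bijective_iff_injective_and_card (f := f)).mpr ⟨hinj, by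
    rw [Fintype.card_subtype_compl, Fintype.card_subtype_eq, ← Nat.card_eq_fintype_card]
    omega⟩
  have hsb : s • b ≠ a := fun e => hb (MulAction.injective s (e.trans hs.symm))
  obtain ⟨h, hh⟩ := hbij.2 ⟨s • b, hsb⟩
  have hh' : (h : G) • b = s • b := congrArg Subtype.val hh
  refine ⟨h, h.2, (h : G)⁻¹ * s, ⟨?_, ?_⟩, by group⟩
  · show ((h : G)⁻¹ * s) • a = a
    rw [mul_smul, hs, inv_smul_eq_iff]
    exact (hHa h.2).symm
  · show ((h : G)⁻¹ * s) • b = b
    rw [mul_smul, ← hh', inv_smul_smul]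

/-- The regular subgroup of a point stabiliser is normal in it. -/
theorem kernel_conj_mem (hZ : IsZassenhausGroup G Ω) [Finite G] [Fintype Ω] (a : Ω)
    (H : Subgroup G) (hHa : H ≤ stabilizer G a) (hHcard : Nat.card H + 1 = Fintype.card Ω)
    (hHfix : ∀ u ∈ H, u ≠ 1 → ∀ c : Ω, u • c = c → c = a) {x : G} (hx : x • a = a) {u : G}
    (hu : u ∈ H) : x * u * x⁻¹ ∈ H := by
  classical
  obtain ⟨g, hg1, c, d, hcd, hc, hd⟩ := hZ.2.2.2.1
  obtain ⟨b, hb⟩ : ∃ b : Ω, b ≠ a := by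
    by_cases h : c = a
    · exact ⟨d, fun e => hcd (h.trans e.symm)⟩
    · exact ⟨c, h⟩
  let D : Subgroup G := stabilizer G a ⊓ stabilizer G b
  let S : Subgroup G := stabilizer G a
  have hsplit : ∀ s ∈ S, ∃ h ∈ H, ∃ d ∈ D, s = h * d := fun s hs =>
    kernel_stabilizer hZ a H hHa hHcard hHfix hb hs
  have hHD : ∀ h ∈ H, h ∈ D → h = 1 := fun h hh hd => by
    by_contra h1
    exact hb (hHfix h hh h1 b hd.2)
  have hcard : Nat.card S = Nat.card H * Nat.card D := by
    rw [← Nat.card_prod]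
    symm
    refine Nat.card_congr (Equiv.ofBijective (fun t : H × D =>
      (⟨(t.1 : G) * t.2, S.mul_mem (hHa t.1.2) t.2.2.1⟩ : S)) ⟨fun t t' e => ?_, fun s => ?_⟩)
    · have e' : (t.1 : G) * t.2 = t'.1 * t'.2 := congrArg Subtype.val e
      have h1 : (t'.1 : G)⁻¹ * t.1 = t'.2 * (t.2 : G)⁻¹ := by
        rw [eq_mul_inv_iff_mul_eq, mul_assoc, e']; group
      have h2 := hHD _ (H.mul_mem (H.inv_mem t'.1.2) t.1.2) (h1 ▸ D.mul_mem t'.2.2 (D.inv_mem t.2.2))
      rw [h2, eq_comm, mul_inv_eq_one] at h1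
      exact Prod.ext (Subtype.ext (inv_mul_eq_one.mp h2).symm) (Subtype.ext h1.symm)
    · obtain ⟨h, hh, d', hd', he⟩ := hsplit s s.2
      exact ⟨(⟨h, hh⟩, ⟨d', hd'⟩), Subtype.ext he.symm⟩
  -- the conjugates of the nontrivial elements of `D` and the elements of `H` fill the stabiliser
  let T := H ⊕ (H × {d : D // d ≠ 1})
  let F : T → S := fun t => match t with
    | .inl h => ⟨h, hHa h.2⟩
    | .inr p => ⟨(p.1 : G) * (p.2.1 : G) * (p.1 : G)⁻¹,
        S.mul_mem (S.mul_mem (hHa p.1.2) p.2.1.2.1) (S.inv_mem (hHa p.1.2))⟩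
  have hfixpt : ∀ p : H × {d : D // d ≠ 1},
      ((p.1 : G) * (p.2.1 : G) * (p.1 : G)⁻¹) • ((p.1 : G) • b) = (p.1 : G) • b := fun p => by
    rw [smul_smul, inv_mul_cancel_right, mul_smul]
    congr 1
    exact p.2.1.2.2
  have hne : ∀ p : H × {d : D // d ≠ 1}, (p.1 : G) • b ≠ a := fun p e => hb
    (MulAction.injective (p.1 : G) (e.trans (hHa p.1.2).symm))
  have hneq1 : ∀ p : H × {d : D // d ≠ 1}, (p.1 : G) * (p.2.1 : G) * (p.1 : G)⁻¹ ≠ 1 := fun p e =>
    p.2.2 (Subtype.ext (mul_eq_left.mp (mul_inv_eq_one.mp e)))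
  have hFinj : Function.Injective F := by
    rintro (h | p) (h' | p') e <;> have e' := congrArg Subtype.val e <;> simp only [F] at e'
    · exact congrArg Sum.inl (Subtype.ext e')
    · exfalso
      refine hne p' (hHfix (h : G) h.2 (fun h1 => hneq1 p' (e'.symm.trans h1)) _ ?_)
      rw [e']; exact hfixpt p'
    · exfalso
      refine hne p (hHfix (h' : G) h'.2 (fun h1 => hneq1 p (e'.trans h1)) _ ?_)
      rw [← e']; exact hfixpt p
    · have h1 : ((p.1 : G) * (p.2.1 : G) * (p.1 : G)⁻¹) • ((p'.1 : G) • b) = (p'.1 : G) • b := by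
        rw [e']; exact hfixpt p'
      have hmemp : (p.1 : G) * (p.2.1 : G) * (p.1 : G)⁻¹ ∈ stabilizer G a ⊓ stabilizer G ((p.1 : G) • b) :=
        ⟨S.mul_mem (S.mul_mem (hHa p.1.2) p.2.1.2.1) (S.inv_mem (hHa p.1.2)), hfixpt p⟩
      have h2 := (two_point_fixed hZ (Ne.symm (hne p)) hmemp (hneq1 p) h1).resolve_left (hne p')
      have h3 : p.1 = p'.1 := by
        by_contra h4
        refine hb (hHfix _ (H.mul_mem (H.inv_mem p.1.2) p'.1.2) (fun e1 => h4 ?_) b ?_)
        · exact Subtype.ext (inv_mul_eq_one.mp e1)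
        · rw [mul_smul, h2, inv_smul_smul]
      rw [h3] at e'
      exact congrArg Sum.inr (Prod.ext h3 (Subtype.ext (Subtype.ext
        (mul_left_cancel (mul_right_cancel e')))))
  have hFbij : Function.Bijective F := by
    refine (Nat.bijective_iff_injective_and_card F).mpr ⟨hFinj, ?_⟩
    have := Fintype.ofFinite D
    rw [Nat.card_sum, Nat.card_prod, hcard,
      show Nat.card {d : D // d ≠ 1} = Nat.card D - 1 by
        rw [Nat.card_eq_fintype_card, Fintype.card_subtype_compl, Fintype.card_subtype_eq,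
          ← Nat.card_eq_fintype_card]]
    have := Nat.card_pos (α := D)
    rw [Nat.mul_sub, mul_one]
    have := Nat.le_mul_of_pos_right (Nat.card H) this
    omega
  obtain ⟨t, ht⟩ := hFbij.2 ⟨x * u * x⁻¹, S.mul_mem (S.mul_mem hx (hHa hu)) (S.inv_mem hx)⟩
  have ht' := congrArg Subtype.val ht
  rcases t with h | p
  · rw [← show ((h : G)) = x * u * x⁻¹ from ht']
    exact h.2
  · exfalso
    simp only [F] at ht'
    have hu1 : u ≠ 1 := fun e => hneq1 p (by rw [ht', e]; group)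
    have h1 := hfixpt p
    rw [ht', mul_smul, mul_smul] at h1
    have h2 := hHfix u hu hu1 (x⁻¹ • (p.1 : G) • b) (eq_inv_smul_iff.mpr h1)
    rw [inv_smul_eq_iff, hx] at h2
    exact hne p h2

end Cfsg.Agent.Lib.Zassenhaus
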